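import Cfsg.Agent.Lib.Helper83.Wat.Base
import Cfsg.Agent.Lib.Helper4.BSWDual

set_option autoImplicit false
set_option linter.unusedSectionVars false
set_option linter.style.haveILetI false

/-! Ladder WAT (S4644), rung FOUR. -/

namespace Cfsg.Agent.Lib.Helper83.Wat

open scoped BigOperators
open Cfsg Cfsg.Agent.Lib.Helper80 Cfsg.Agent.Lib.Helper80.GA Cfsg.Agent.Lib.Helper81
open Cfsg.Agent.Lib.Helper83.Star

universe u

variable {p : ℕ} [Fact p.Prime] {M : Ideal AlgInt} (hM : IsPModular p M)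
  {G : Type u} [Group G] [Fintype G]

/-- the norm map of a finite group of automorphisms. -/
theorem four_norm {A : Type*} [CommGroup A] [Finite A] {p : ℕ} [Fact p.Prime] (hA : IsPGroup p A)
    (Φ : Subgroup (MulAut A)) (hΦ : ¬ p ∣ Nat.card Φ) (u : A)
    (hu : u ∈ Subgroup.closure {x : A | ∃ α ∈ Φ, ∃ w : A, x = α w * w⁻¹})
    (hfix : ∀ α ∈ Φ, α u = u) : u = 1 := by
  classical
  have : Fintype Φ := Fintype.ofFinite Φ
  let N : A →* A :=
    { toFun := fun w => ∏ α : Φ, (α : MulAut A) w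
      map_one' := by simp
      map_mul' := fun a b => by simp [Finset.prod_mul_distrib] }
  have hN : ∀ w, N w = ∏ α : Φ, (α : MulAut A) w := fun _ => rfl
  have hinv : ∀ β ∈ Φ, ∀ w, N (β w) = N w := by
    intro β hβ w
    rw [hN, hN]
    exact Fintype.prod_equiv (Equiv.mulRight (⟨β, hβ⟩ : Φ)) _ _ (fun α => rfl)
  have hK : Subgroup.closure {x : A | ∃ α ∈ Φ, ∃ w : A, x = α w * w⁻¹} ≤ N.ker := by
    rw [Subgroup.closure_le]
    rintro x ⟨α, hα, w, rfl⟩
    show N (α w * w⁻¹) = 1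
    rw [map_mul, hinv α hα, map_inv, mul_inv_cancel]
  have h1 : N u = 1 := hK hu
  have h2 : N u = u ^ Nat.card Φ := by
    rw [hN, Finset.prod_congr rfl (fun (α : Φ) _ => hfix (α : MulAut A) α.2), Finset.prod_const, Finset.card_univ,
      Nat.card_eq_fintype_card]
  rw [h2] at h1
  obtain ⟨k, hk⟩ := hA u
  have h3 : orderOf u ∣ Nat.gcd (p ^ k) (Nat.card Φ) :=
    Nat.dvd_gcd (orderOf_dvd_of_pow_eq_one hk) (orderOf_dvd_of_pow_eq_one h1)
  have h4 : Nat.gcd (p ^ k) (Nat.card Φ) = 1 :=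
    Nat.Coprime.pow_left k ((Nat.Prime.coprime_iff_not_dvd Fact.out).mpr hΦ)
  rw [h4, Nat.dvd_one, orderOf_eq_one_iff] at h3
  exact h3

open Classical in
/-- a character which is nontrivial on `K` sums to zero over `K`. -/
theorem four_sum_zero {A : Type*} [CommGroup A] [Fintype A] (K : Subgroup A) (lam : A →* ℂˣ)
    {k : A} (hk : k ∈ K) (hlk : lam k ≠ 1) :
    ∑ u : A, (if u ∈ K then ((lam u : ℂˣ) : ℂ) else 0) = 0 := by
  have h1 : ∑ u : A, (if u ∈ K then ((lam u : ℂˣ) : ℂ) else 0)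
      = ((lam k : ℂˣ) : ℂ) * ∑ u : A, (if u ∈ K then ((lam u : ℂˣ) : ℂ) else 0) := by
    rw [Finset.mul_sum]
    refine (Fintype.sum_equiv (Equiv.mulLeft k) _ _ (fun u => ?_)).symm
    show _ = if k * u ∈ K then ((lam (k * u) : ℂˣ) : ℂ) else 0
    rw [Subgroup.mul_mem_cancel_left K hk]
    split_ifs
    · rw [map_mul, Units.val_mul]
    · rw [mul_zero]
  have h2 : ((lam k : ℂˣ) : ℂ) ≠ 1 := fun h => hlk (Units.ext h)
  have h3 : (1 - ((lam k : ℂˣ) : ℂ)) * ∑ u : A, (if u ∈ K then ((lam u : ℂˣ) : ℂ) else 0) = 0 := by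
    rw [sub_mul, one_mul, ← h1, sub_self]
  rcases mul_eq_zero.mp h3 with h | h
  · exact absurd (sub_eq_zero.mp h).symm h2
  · exact h

open Classical in
theorem four_abs {A : Type*} [CommGroup A] [Fintype A] {p : ℕ} [Fact p.Prime] (hA : IsPGroup p A)
    (Φ : Subgroup (MulAut A)) (hΦ : ¬ p ∣ Nat.card Φ) (F : A → ℂ)
    (hF : ∀ lam : A →* ℂˣ, (∀ α ∈ Φ, ∀ u, lam (α u) = lam u) → lam ≠ 1 →
      ∑ u : A, ((lam u : ℂˣ) : ℂ) * F u = 0) :
    ∃ K : Subgroup A, (∀ u ∈ K, (∀ α ∈ Φ, α u = u) → u = 1) ∧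
      ∀ v : A, ∑ u : A, (if u ∈ K then F (v * u) else 0) = ∑ u : A, if u ∈ K then F u else 0 := by
  refine ⟨Subgroup.closure {x : A | ∃ α ∈ Φ, ∃ w : A, x = α w * w⁻¹},
    fun u hu hfix => four_norm hA Φ hΦ u hu hfix, ?_⟩
  set K := Subgroup.closure {x : A | ∃ α ∈ Φ, ∃ w : A, x = α w * w⁻¹} with hKdef
  have : Fintype (A →* ℂˣ) := Fintype.ofFinite _
  set S : A → ℂ := fun v => ∑ u : A, (if u ∈ K then F (v * u) else 0) with hS
  -- Fourier coefficients
  have hcoef : ∀ lam : A →* ℂˣ, lam ≠ 1 →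
      ∑ y : A, S y * (starRingEnd ℂ) ((lam y : ℂˣ) : ℂ) = 0 := by
    intro lam hlam
    have e1 : ∑ y : A, S y * (starRingEnd ℂ) ((lam y : ℂˣ) : ℂ)
        = (∑ u : A, (if u ∈ K then ((lam u : ℂˣ) : ℂ) else 0)) *
          ∑ w : A, ((lam⁻¹ w : ℂˣ) : ℂ) * F w := by
      rw [Finset.sum_mul]
      simp_rw [hS, Finset.sum_mul]
      rw [Finset.sum_comm]
      apply Finset.sum_congr rfl
      intro u _
      split_ifs with hu
      · rw [Finset.mul_sum]
        refine Fintype.sum_equiv (Equiv.mulRight u) _ _ (fun y => ?_)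
        show _ = ((lam u : ℂˣ) : ℂ) * (((lam⁻¹ (y * u) : ℂˣ) : ℂ) * F (y * u))
        rw [Cfsg.Agent.Lib.Helper4.BSW.dual_conj, MonoidHom.inv_apply, map_mul, map_inv, mul_inv,
          Units.val_mul]
        have : ((lam u : ℂˣ) : ℂ) * (((lam u)⁻¹ : ℂˣ) : ℂ) = 1 := by
          rw [← Units.val_mul, mul_inv_cancel, Units.val_one]
        calc F (y * u) * (((lam y)⁻¹ : ℂˣ) : ℂ)
            = (((lam u : ℂˣ) : ℂ) * (((lam u)⁻¹ : ℂˣ) : ℂ)) * (F (y * u) * (((lam y)⁻¹ : ℂˣ) : ℂ)) := by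
              rw [this, one_mul]
          _ = _ := by ring
      · simp
    rw [e1]
    by_cases hinv : ∀ α ∈ Φ, ∀ u, lam⁻¹ (α u) = lam⁻¹ u
    · have hl' : lam⁻¹ ≠ 1 := by
        intro h
        apply hlam
        ext u
        have h5 := DFunLike.congr_fun h u
        rw [MonoidHom.inv_apply, MonoidHom.one_apply, inv_eq_one] at h5
        rw [h5, MonoidHom.one_apply]
      rw [hF lam⁻¹ hinv hl', mul_zero]
    · simp only [not_forall] at hinv
      obtain ⟨α, hα, u, hne⟩ := hinv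
      have hk : α u * u⁻¹ ∈ K := Subgroup.subset_closure ⟨α, hα, u, rfl⟩
      have hlk : lam (α u * u⁻¹) ≠ 1 := by
        intro h
        apply hne
        rw [map_mul, map_inv, mul_inv_eq_one] at h
        rw [MonoidHom.inv_apply, MonoidHom.inv_apply, h]
      rw [four_sum_zero K lam hk hlk, zero_mul]
  have hconst : ∀ x : A, S x = (Nat.card A : ℂ)⁻¹ * ∑ y : A, S y := by
    intro x
    rw [Cfsg.Agent.Lib.Helper4.BSW.dual_fourier S x]
    congr 1
    rw [Finset.sum_eq_single (1 : A →* ℂˣ)]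
    · simp
    · intro lam _ hlam
      rw [hcoef lam hlam, zero_mul]
    · intro h
      exact absurd (Finset.mem_univ _) h
  intro v
  have h1 := hconst v
  have h2 := hconst 1
  have h3 : S 1 = ∑ u : A, if u ∈ K then F u else 0 := by
    simp only [hS, one_mul]
  rw [← h3, h2, ← h1]

/-- the image of `T` in `Aut P` is a `p'`-group. -/
theorem four_not_dvd {G : Type*} [Group G] [Finite G] {p : ℕ} [Fact p.Prime] (P T : Subgroup G)
    (hTN : T ≤ Subgroup.normalizer (P : Set G))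
    (hp' : ∀ t ∈ T, IsPGroup p (Subgroup.zpowers t) → t ∈ Subgroup.centralizer (P : Set G)) :
    ¬ p ∣ Nat.card (P.normalizerMonoidHom.comp (Subgroup.inclusion hTN)).range := by
  intro hdvd
  have hpp : p.Prime := Fact.out
  obtain ⟨x, hx⟩ := exists_prime_orderOf_dvd_card' p hdvd
  obtain ⟨t, ht⟩ := x.2
  obtain ⟨k, n, hn, e⟩ := Nat.exists_eq_pow_mul_and_not_dvd (orderOf_pos (t : G)).ne' p hpp.ne_one
  have h1 : IsPGroup p (Subgroup.zpowers ((t : G) ^ n)) := by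
    rintro ⟨y, hy⟩
    obtain ⟨i, rfl⟩ := Subgroup.mem_zpowers_iff.mp hy
    refine ⟨k, Subtype.ext ?_⟩
    show (((t : G) ^ n) ^ i) ^ p ^ k = 1
    rw [← zpow_natCast, ← zpow_mul, mul_comm, zpow_mul, zpow_natCast, ← pow_mul, mul_comm, ← e,
      pow_orderOf_eq_one, one_zpow]
  have h2 := hp' _ (T.pow_mem t.2 n) h1
  have h3 : (P.normalizerMonoidHom.comp (Subgroup.inclusion hTN)) (t ^ n) = 1 := by
    ext u
    have := Subgroup.mem_centralizer_iff.mp h2 u u.2
    show ((t ^ n : T) : G) * (u : G) * ((t ^ n : T) : G)⁻¹ = (u : G)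
    rw [Subgroup.coe_pow, ← this, mul_inv_cancel_right]
  rw [map_pow, ht] at h3
  have h4 : x ^ n = 1 := Subtype.ext h3
  have h5 := orderOf_dvd_of_pow_eq_one h4
  rw [hx] at h5
  exact hn h5

open Classical in
theorem four {G : Type*} [Group G] [Finite G] {p : ℕ} [Fact p.Prime] (P T : Subgroup G)
    (hP : IsPGroup p P) (hab : ∀ x ∈ P, ∀ y ∈ P, x * y = y * x)
    (hTN : T ≤ Subgroup.normalizer (P : Set G))
    (hp' : ∀ t ∈ T, IsPGroup p (Subgroup.zpowers t) → t ∈ Subgroup.centralizer (P : Set G))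
    [Fintype P] (F : P → ℂ)
    (hF : ∀ lam : P →* ℂˣ, InvL P T lam → lam ≠ 1 → ∑ u : P, ((lam u : ℂˣ) : ℂ) * F u = 0) :
    ∃ K : Subgroup P, (∀ u ∈ K, (∀ y ∈ T, y * (u : G) * y⁻¹ = (u : G)) → u = 1) ∧
      ∀ v : P, ∑ u : P, (if u ∈ K then F (v * u) else 0) = ∑ u : P, if u ∈ K then F u else 0 := by
  have hΦ := four_not_dvd P T hTN hp'
  letI : CommGroup P :=
    { (inferInstance : Group P) with mul_comm := fun a b => Subtype.ext (hab a a.2 b b.2) }
  obtain ⟨K, hK1, hK2⟩ := four_abs (A := P) hP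
    (P.normalizerMonoidHom.comp (Subgroup.inclusion hTN)).range hΦ F (by
      intro lam hinv hlam
      apply hF lam _ hlam
      intro y hy u h
      exact hinv _ ⟨⟨y, hy⟩, rfl⟩ u)
  refine ⟨K, ?_, hK2⟩
  intro u hu hfix
  apply hK1 u hu
  rintro α ⟨y, rfl⟩
  exact Subtype.ext (hfix y y.2)

end Cfsg.Agent.Lib.Helper83.Wat
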