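import Cfsg.Agent.Lib.Helper83.Wat.Base

set_option autoImplicit false
set_option linter.unusedSectionVars false
set_option linter.style.haveILetI false

/-! Ladder WAT (S4644), rung CTRL. -/

namespace Cfsg.Agent.Lib.Helper83.Wat

open scoped BigOperators
open Cfsg Cfsg.Agent.Lib.Helper80 Cfsg.Agent.Lib.Helper80.GA Cfsg.Agent.Lib.Helper81
open Cfsg.Agent.Lib.Helper83.Star

universe u

variable {p : ℕ} [Fact p.Prime] {M : Ideal AlgInt} (hM : IsPModular p M)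
  {G : Type u} [Group G] [Fintype G]

theorem ctrl {b e : GA (Kr hM) G} {P : Subgroup G} (hmax : IsMaxBP p b P e)
    (hab : ∀ x ∈ P, ∀ y ∈ P, x * y = y * x) {Q : Subgroup G} {f : GA (Kr hM) G} {g : G}
    (h1 : BPLE p (Q, f) (P, e)) (h2 : BPLE p (cS g Q, cj g f) (P, e)) :
    ∃ y ∈ stabP P e, ∃ c ∈ Cn Q, g = y * c := by
  have he : IsBP p P e := hmax.1.1
  have hf' : IsBP p (cS g Q) (cj g f) := h2.isBP he
  have hloc : Loc p (cS g Q) (cj g f) (Cn (cS g Q)) :=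
    ⟨hf', h2.le.trans (le_Cn_of_abelian hab h2.le), le_rfl, Cn_le_stabP hf'.2.inZ⟩
  have h3 := h1.cj g
  simp only at h3
  have h4 : cS g P ≤ Cn (cS g Q) := by
    have := cS_mono g (le_Cn_of_abelian hab h1.le)
    rwa [cS_Cn] at this
  obtain ⟨c, hc, hcle⟩ := hloc.exists_conj_le h2 (hmax.abelian_isDef_Cn hab h2) h3 h4
  rw [cS_cS, cj_cj] at hcle
  have h5 : cS (c * g) P = P := by
    apply Subgroup.eq_of_le_of_card_ge hcle.le
    rw [card_cS]
  rw [h5] at hcle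
  have h6 : cj (c * g) e = e := he.subpair_unique _ P _ _ rfl hcle Relation.ReflTransGen.refl
  have hyN : c * g ∈ Nn P := by
    rw [Subgroup.mem_normalizer_iff]
    intro x
    constructor
    · intro hx
      rw [← h5, mem_cS]
      simpa [mul_assoc] using hx
    · intro hx
      rw [← h5, mem_cS] at hx
      simpa [mul_assoc] using hx
  refine ⟨c * g, ⟨hyN, h6⟩, g⁻¹ * c⁻¹ * g, ?_, by group⟩
  have h7 : c⁻¹ ∈ cS g (Cn Q) := by
    rw [cS_Cn]; exact (Cn _).inv_mem hc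
  rw [mem_cS] at h7
  exact h7

theorem stableOn_of_inv {b e : GA (Kr hM) G} {P : Subgroup G} (hmax : IsMaxBP p b P e)
    (hab : ∀ x ∈ P, ∀ y ∈ P, x * y = y * x) {η : G → ℂ}
    (hη : ∀ y ∈ stabP P e, ∀ u ∈ P, η (y * u * y⁻¹) = η u) : StableOn p P e η := by
  intro R f g h1 h2 r hr
  obtain ⟨y, hy, c, hc, rfl⟩ := ctrl hM hmax hab h1 h2
  have h3 : r * c = c * r := mem_Cn.1 hc r hr
  have h4 : y * c * r * (y * c)⁻¹ = y * r * y⁻¹ := by
    calc y * c * r * (y * c)⁻¹ = y * (c * r) * c⁻¹ * y⁻¹ := by group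
      _ = y * (r * c) * c⁻¹ * y⁻¹ := by rw [h3]
      _ = y * r * y⁻¹ := by group
  rw [h4]
  exact hη y hy r (h1.le hr)

theorem pelt_mem_Cn {b e : GA (Kr hM) G} {P : Subgroup G} (hmax : IsMaxBP p b P e)
    (hab : ∀ x ∈ P, ∀ y ∈ P, x * y = y * x) {x : G} (hx : x ∈ stabP P e)
    (hxp : IsPGroup p (Subgroup.zpowers x)) : x ∈ Cn P := by
  have he : IsBP p P e := hmax.1.1
  have hsup : P ⊔ Cn P = Cn P := sup_eq_right.2 (le_Cn_of_abelian hab le_rfl)
  have hsp : ∀ z, InZ (P ⊔ Cn P) z → ∃ c : Kr hM, IsNilpotent (z * e - c • e) := by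
    rw [hsup]
    exact split_sub hM he.2
  have h1 := hmax.pSubgroup_le hsp (S := Subgroup.zpowers x)
    (by rw [Subgroup.zpowers_le]; exact hx) hxp
  rw [hsup] at h1
  exact h1 (Subgroup.mem_zpowers x)

end Cfsg.Agent.Lib.Helper83.Wat
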