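import Cfsg.Agent.Lib.Helper83.Wat.Base
import Cfsg.Agent.Lib.Helper83.Wat.CTRL

set_option autoImplicit false
set_option linter.unusedSectionVars false
set_option linter.style.haveILetI false

/-! Ladder WAT (S4644), rung STARNE. -/

namespace Cfsg.Agent.Lib.Helper83.Wat

open scoped BigOperators
open Cfsg Cfsg.Agent.Lib.Helper80 Cfsg.Agent.Lib.Helper80.GA Cfsg.Agent.Lib.Helper81
open Cfsg.Agent.Lib.Helper83.Star

universe u

variable {p : ℕ} [Fact p.Prime] {M : Ideal AlgInt} (hM : IsPModular p M)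
  {G : Type u} [Group G] [Fintype G]

theorem star_ne {B : Set (IrrCharacter G)} (hB : IsPBlock M B) {P : Subgroup G}
    {e : GA (Kr hM) G} (hmax : IsMaxBP p (blkR hM B) P e)
    (hab : ∀ x ∈ P, ∀ y ∈ P, x * y = y * x) {X : Finset G} (hX : PReps p X)
    (lam : P →* ℂˣ) (hinv : InvL P (stabP P e) lam) (hne : lam ≠ 1) {χ : IrrCharacter G}
    (hχ : χ ∈ B) {θ : G → ℂ}
    (hθ : IsStar p M X (fun x b => extL lam (Upt hM P e x b)) (χ : G → ℂ) θ) :
    θ ≠ (χ : G → ℂ) := by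
  classical
  intro hθχ
  apply hne
  have hst : StableOn p P e (extL lam) := by
    apply stableOn_of_inv hM hmax hab
    intro y hy u hu
    have hyN : y ∈ Nn P := hy.1
    have hmem : y * u * y⁻¹ ∈ P := (Subgroup.mem_normalizer_iff.1 hyN u).1 hu
    rw [extL_mem lam hmem, extL_mem lam hu]
    exact congrArg _ (hinv y hy ⟨u, hu⟩ hmem)
  obtain ⟨χ₀, hχ₀, hmin⟩ := exists_minDeg (p := p) (isPBlock_nonempty hM hB)
  have h0 : blockHeight p B (χ₀ : G → ℂ) = 0 := (blockHeight_eq_zero_iff hχ₀).2 hmin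
  ext u
  obtain ⟨x, hx, b, t, hind, hcar, htx, hdef⟩ := exists_cover hM hB hmax hX u.2
  have hd : blockDefect p b = blockDefect p B := hdef (fun d hd => hab d hd u u.2)
  obtain ⟨n, hn⟩ := hX.pow x hx
  have D : SubsecData p M (Cx x) x n b B := ⟨hM, hn, self_mem_Cx x, Cx_comm x, le_rfl, hind⟩
  obtain ⟨w, hw1, hw2, hw3⟩ := major_unit D hd hχ₀ hχ h0
  have hmS : mS p (Cx x) b x (χ₀ : G → ℂ) (χ : G → ℂ) ≠ 0 := by
    intro h
    rw [h, mul_zero] at hw3
    have hp0 : (p : ℂ) ^ blockHeight p B (χ : G → ℂ) ≠ 0 :=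
      pow_ne_zero _ (by exact_mod_cast hM.1.ne_zero)
    have hw0 : w = 0 := by
      rcases mul_eq_zero.1 hw3.symm with h | h
      · exact absurd h hp0
      · exact h
    apply hw2
    rw [hw0]
    exact memLocalIdeal_zero hM
  have hex : ∃ s : Cx x, IsPRegular p s ∧ Th (Cx x) b x (χ : G → ℂ) s ≠ 0 := by
    by_contra hcon
    push Not at hcon
    exact hmS (mS_eq_zero_of_right hcon)
  obtain ⟨s, hs, hTh⟩ := hex
  have h1 := hθ.Th_eq hM hx hind.1 hs
  rw [hθχ] at h1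
  have h2 : extL lam (Upt hM P e x b) = 1 := by
    have h3 : (extL lam (Upt hM P e x b) - 1) * Th (Cx x) b x (χ : G → ℂ) s = 0 := by
      rw [sub_mul, one_mul, ← h1, sub_self]
    rcases mul_eq_zero.1 h3 with h | h
    · exact sub_eq_zero.1 h
    · exact absurd h hTh
  rw [hst.Upt_eq hM hcar, htx, extL_coe] at h2
  simpa using h2

end Cfsg.Agent.Lib.Helper83.Wat
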