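import Cfsg.Agent.Lib.Helper83.Wat.Base

set_option autoImplicit false
set_option linter.unusedSectionVars false
set_option linter.style.haveILetI false

/-! Ladder WAT (S4644), rung TRSUM. -/

namespace Cfsg.Agent.Lib.Helper83.Wat

open scoped BigOperators
open Cfsg Cfsg.Agent.Lib.Helper80 Cfsg.Agent.Lib.Helper80.GA Cfsg.Agent.Lib.Helper81
open Cfsg.Agent.Lib.Helper83.Star

universe u

variable {p : ℕ} [Fact p.Prime] {M : Ideal AlgInt} (hM : IsPModular p M)
  {G : Type u} [Group G] [Fintype G]

include hM in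
open Classical in
theorem trsum {B : Set (IrrCharacter G)} (hB : IsPBlock M B) {X : Finset G} (hX : PReps p X)
    (L : ∀ x : G, Set (IrrCharacter (Cx x)) → ℂ) (Θ : IrrCharacter G → G → ℂ)
    (hΘ : ∀ χ ∈ B, IsStar p M X L (χ : G → ℂ) (Θ χ)) [Fintype (IrrCharacter G)]
    [∀ x : G, Fintype (Set (IrrCharacter (Cx x)))] :
    ∑ χ : IrrCharacter G, (if χ ∈ B then classInner (Θ χ) (χ : G → ℂ) else 0)
      = ∑ x ∈ X, ∑ b : Set (IrrCharacter (Cx x)),
        (if IsInducedBlock M (Cx x) b B then L x b * (blockRank p b : ℂ) else 0) := by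
  have h1 : ∀ χ : IrrCharacter G, (if χ ∈ B then classInner (Θ χ) (χ : G → ℂ) else 0)
      = ∑ x ∈ X, ∑ b : Set (IrrCharacter (Cx x)),
        (if IsInducedBlock M (Cx x) b B then
          L x b * (if χ ∈ B then mS p (Cx x) b x (χ : G → ℂ) (χ : G → ℂ) else 0) else 0) := by
    intro χ
    by_cases hχ : χ ∈ B
    · rw [if_pos hχ, (hΘ χ hχ).classInner_eq hM hX (isStar_one hM X (irr_classFunction χ))]
      apply Finset.sum_congr rfl; intro x hx
      apply Finset.sum_congr rfl; intro b _
      rw [if_pos hχ]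
      by_cases hind : IsInducedBlock M (Cx x) b B
      · rw [if_pos hind, if_pos hind.1, map_one, mul_one]
      · rw [if_neg hind]
        by_cases hb : IsPBlock M b
        · rw [if_pos hb, mS_eq_zero_of_left (fun s hs =>
            Th_eq_zero_of_not_ind hM hB hχ (hX.pow x hx) hb hind hs), mul_zero]
        · rw [if_neg hb]
    · rw [if_neg hχ]
      symm
      apply Finset.sum_eq_zero; intro x _
      apply Finset.sum_eq_zero; intro b _
      rw [if_neg hχ, mul_zero, ite_self]
  rw [Finset.sum_congr rfl (fun χ _ => h1 χ), Finset.sum_comm]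
  apply Finset.sum_congr rfl; intro x hx
  rw [Finset.sum_comm]
  apply Finset.sum_congr rfl; intro b _
  by_cases hind : IsInducedBlock M (Cx x) b B
  · simp only [if_pos hind]
    have : Finite (IrrCharacter (Cx x)) := Cfsg.Agent.Lib.Helper20.finite_irrCharacter
    have : Fintype (IrrCharacter (Cx x)) := Fintype.ofFinite _
    rw [← Finset.mul_sum, sum_mS_diag hM (Cx x) x (hX.pow x hx) (self_mem_Cx x) (Cx_comm x) le_rfl
      hind]
  · simp only [if_neg hind, Finset.sum_const_zero]

end Cfsg.Agent.Lib.Helper83.Wat
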