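import Cfsg.Agent.Lib.Helper83.Wat.Base
import Cfsg.Agent.Lib.Helper83.Wat.STARNE
import Cfsg.Agent.Lib.Helper83.Wat.TRSUM
import Cfsg.Agent.Lib.Helper83.Star.Hub
import Cfsg.Agent.Lib.Helper31.TypeP2
import Cfsg.Agent.Lib.Helper83.Basic

set_option autoImplicit false
set_option linter.unusedSectionVars false
set_option linter.style.haveILetI false

/-! Ladder WAT (S4644), rung TRACE. -/

namespace Cfsg.Agent.Lib.Helper83.Wat

open scoped BigOperators
open Cfsg Cfsg.Agent.Lib.Helper80 Cfsg.Agent.Lib.Helper80.GA Cfsg.Agent.Lib.Helper81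
open Cfsg.Agent.Lib.Helper83.Star

universe u

variable {p : ℕ} [Fact p.Prime] {M : Ideal AlgInt} (hM : IsPModular p M)
  {G : Type u} [Group G] [Fintype G]

open Classical in
theorem trace_zero {B : Set (IrrCharacter G)} (hB : IsPBlock M B) {P : Subgroup G}
    {e : GA (Kr hM) G} (hmax : IsMaxBP p (blkR hM B) P e)
    (hab : ∀ x ∈ P, ∀ y ∈ P, x * y = y * x) {X : Finset G} (hX : PReps p X)
    (lam : P →* ℂˣ) (hinv : InvL P (stabP P e) lam) (hne : lam ≠ 1)
    [∀ x : G, Fintype (Set (IrrCharacter (Cx x)))] :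
    ∑ x ∈ X, ∑ b : Set (IrrCharacter (Cx x)),
      (if IsInducedBlock M (Cx x) b B then
        extL lam (Upt hM P e x b) * (blockRank p b : ℂ) else 0) = 0 := by
  have hst : StableOn p P e (extL lam) := stableOn_of_inv hM hmax hab (by
    intro y hy u hu
    have hyu : y * u * y⁻¹ ∈ P := (Subgroup.mem_normalizer_iff.1 hy.1 u).1 hu
    rw [extL_mem lam hyu, extL_mem lam hu, hinv y hy ⟨u, hu⟩ hyu])
  have hgen : IsGeneralizedCharacter P (fun u : P => extL lam (u : G)) := by
    have h1 : (fun u : P => extL lam (u : G)) = fun u => ((lam u : ℂˣ) : ℂ) :=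
      funext (extL_coe lam)
    rw [h1]
    exact ⟨_, 0, Cfsg.Agent.Lib.Helper20.isCharacter_of_isIrrCharacter (Cfsg.Agent.Lib.Helper83.isIrr_of_hom lam),
      Cfsg.Agent.Lib.Helper20.isCharacter_zero, by simp⟩
  have hfinI : Finite (IrrCharacter G) := Cfsg.Agent.Lib.Helper20.finite_irrCharacter
  haveI : Fintype (IrrCharacter G) := Fintype.ofFinite _
  choose Θ hΘ using fun χ : IrrCharacter G =>
    exists_isStar (M := M) hM.1 hX (fun x b => extL lam (Upt hM P e x b)) (χ : G → ℂ)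
  rw [← trsum hM hB hX _ Θ (fun χ _ => hΘ χ)]
  apply Finset.sum_eq_zero; intro χ _
  by_cases hχ : χ ∈ B
  · rw [if_pos hχ]
    have hg := star_isGeneralizedCharacter hM (hub hM) hB hmax hX hst hgen hχ (hΘ χ)
    obtain ⟨hirr, -, -⟩ := (hΘ χ).irr hM hB hχ hX hg (by
      intro x hx b hind
      rw [extL_mem lam (Upt_mem hM hmax (hX.pow x hx) hind)]
      exact Cfsg.Agent.Lib.Helper31.hom_mul_conj lam _) (by
      intro b _
      rw [Upt_one, extL_mem lam P.one_mem]
      have : (⟨1, P.one_mem⟩ : P) = 1 := rfl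
      rw [this, map_one, Units.val_one])
    exact Cfsg.Agent.Lib.Helper20.classInner_irr_ne hirr χ.2 (star_ne hM hB hmax hab hX lam hinv hne hχ (hΘ χ))
  · rw [if_neg hχ]

end Cfsg.Agent.Lib.Helper83.Wat
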