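import Cfsg.Agent.Lib.Helper83.Wat.KLOC
import Cfsg.Agent.Lib.Helper83.Wat.TRACE
import Cfsg.Agent.Lib.Helper83.Wat.FOUR
import Cfsg.Agent.Lib.Helper5.AbNil

set_option autoImplicit false
set_option linter.unusedSectionVars false
set_option linter.style.haveILetI false

/-! Ladder WAT (S4644): the induction. -/

namespace Cfsg.Agent.Lib.Helper83.Wat

open scoped BigOperators
open Cfsg Cfsg.Agent.Lib.Helper80 Cfsg.Agent.Lib.Helper80.GA Cfsg.Agent.Lib.Helper81
open Cfsg.Agent.Lib.Helper83.Star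

universe u

variable {p : ℕ} [Fact p.Prime] {M : Ideal AlgInt} (hM : IsPModular p M)
  {G : Type u} [Group G] [Fintype G]

theorem le_Cx_of_abelian {P : Subgroup G} (hab : ∀ x ∈ P, ∀ y ∈ P, x * y = y * x) {u : G}
    (hu : u ∈ P) : P ≤ Cx u := fun x hx => mem_Cx.2 (hab u hu x hx)

theorem zpowers_le_of_mem {P : Subgroup G} {u : G} (hu : u ∈ P) : Subgroup.zpowers u ≤ P := by
  rw [Subgroup.zpowers_le]; exact hu

/-- the local step -/
theorem loc {B : Set (IrrCharacter G)} {P : Subgroup G} {e : GA (Kr hM) G}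
    (hmax : IsMaxBP p (blkR hM B) P e) (hab : ∀ x ∈ P, ∀ y ∈ P, x * y = y * x) {u z : G}
    (hu : u ∈ P) (hz : z ∈ P) [Fintype (Cx u)] (hW : WStmt hM (Cx u))
    (hzT : ∀ g ∈ stabP P e, g ∈ Cx u → g * z * g⁻¹ = z) :
    ell hM P e (Cx u) = ell hM P e (Cn (Subgroup.zpowers u ⊔ Subgroup.zpowers z)) := by
  have he : IsBP p P e := hmax.1.1
  have hPL : P ≤ Cx u := le_Cx_of_abelian hab hu
  have hCL : Cn P ≤ Cx u := by
    rw [Cx_eq]; exact Cn_anti (zpowers_le_of_mem hu)
  obtain ⟨b, hb⟩ := bel_exists hM he hab (zpowers_le_of_mem hu) (Cx_eq u)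
  have hmaxL := isMaxBP_loc hM hmax hab (zpowers_le_of_mem hu) (Cx_eq u) hb
  have habL : ∀ x ∈ P.subgroupOf (Cx u), ∀ y ∈ P.subgroupOf (Cx u), x * y = y * x := by
    intro x hx y hy
    apply Subtype.ext
    exact hab x (Subgroup.mem_subgroupOf.1 hx) y (Subgroup.mem_subgroupOf.1 hy)
  have hzL : z ∈ Cx u := hPL hz
  have hzP : (⟨z, hzL⟩ : Cx u) ∈ P.subgroupOf (Cx u) := Subgroup.mem_subgroupOf.2 hz
  obtain ⟨b', hb'⟩ := bel_exists hM hmaxL.1.1 habL (zpowers_le_of_mem hzP)
    (Cx_eq (⟨z, hzL⟩ : Cx u))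
  have h1 := hW b (P.subgroupOf (Cx u)) (rst (Cx u) e) hb.1 hmaxL habL ⟨z, hzL⟩ hzP (by
    intro g hg
    apply Subtype.ext
    exact hzT g ((mem_stabP_loc hM he hPL hCL g).1 hg) g.2) b' hb'
  rw [ell_eq hM he hPL hb, h1, ← ell_loc hM he hab hu hz hzL,
    ell_eq hM hmaxL.1.1 (le_Cx_of_abelian habL hzP) hb']

theorem Cx_one_eq_top : Cx (1 : G) = ⊤ := by
  ext g; simp [mem_Cx]

/-- the block at `u = 1` -/
theorem ell_one {B : Set (IrrCharacter G)} (hB : IsPBlock M B) {P : Subgroup G}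
    {e : GA (Kr hM) G} (hmax : IsMaxBP p (blkR hM B) P e) :
    ell hM P e (Cx (1 : G)) = blockRank p B := by
  have he : IsBP p P e := hmax.1.1
  have h1 : IsBlk (Cx (1 : G)) (blkR hM B) := by
    rw [Cx_one_eq_top]; exact hmax.1.2.1
  obtain ⟨b, hb, hbeq⟩ := exists_block_of_isBlk_sub hM _ h1
  have hbel : Bel hM P e (Cx (1 : G)) b := ⟨hb, by rw [← hbeq]; exact hmax.1.2.2⟩
  rw [ell_eq hM he (by rw [Cx_one_eq_top]; exact le_top) hbel]
  exact ((rank_transfer_top hM _ Cx_one_eq_top hb hB hbeq.symm).1).symm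

theorem inf_Cx_eq_of_fixed {T : Subgroup G} {z : G} (hzT : ∀ g ∈ T, g * z * g⁻¹ = z) :
    T ⊓ Cx z = T := by
  apply inf_eq_left.2
  intro g hg
  rw [mem_Cx]
  have := hzT g hg
  calc z * g = (g * z * g⁻¹) * g := by rw [this]
    _ = g * z := by group

theorem inf_Cx_mul_eq {T : Subgroup G} {z : G} (hzT : ∀ g ∈ T, g * z * g⁻¹ = z) (u : G) :
    T ⊓ Cx (z * u) = T ⊓ Cx u := by
  ext g
  simp only [Subgroup.mem_inf, mem_Cx]
  constructor
  · rintro ⟨hg, h⟩
    refine ⟨hg, ?_⟩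
    have h1 : g * z = z * g := by
      have := hzT g hg
      calc g * z = (g * z * g⁻¹) * g := by group
        _ = z * g := by rw [this]
    have h2 : z * (u * g) = z * (g * u) := by
      calc z * (u * g) = z * u * g := by group
        _ = g * (z * u) := h
        _ = (g * z) * u := by group
        _ = z * (g * u) := by rw [h1]; group
    exact mul_left_cancel h2
  · rintro ⟨hg, h⟩
    refine ⟨hg, ?_⟩
    have h1 : g * z = z * g := by
      have := hzT g hg
      calc g * z = (g * z * g⁻¹) * g := by group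
        _ = z * g := by rw [this]
    calc z * u * g = z * (u * g) := by group
      _ = z * (g * u) := by rw [h]
      _ = (z * g) * u := by group
      _ = g * (z * u) := by rw [← h1]; group

theorem zpowers_mul_sup (z u : G) :
    Subgroup.zpowers (z * u) ⊔ Subgroup.zpowers z = Subgroup.zpowers u ⊔ Subgroup.zpowers z := by
  apply le_antisymm
  · apply sup_le _ le_sup_right
    rw [Subgroup.zpowers_le]
    exact Subgroup.mul_mem _ (le_sup_right (a := Subgroup.zpowers u) (Subgroup.mem_zpowers z))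
      (le_sup_left (b := Subgroup.zpowers z) (Subgroup.mem_zpowers u))
  · apply sup_le _ le_sup_right
    rw [Subgroup.zpowers_le]
    have h1 : z * u ∈ Subgroup.zpowers (z * u) ⊔ Subgroup.zpowers z :=
      le_sup_left (b := Subgroup.zpowers z) (Subgroup.mem_zpowers (z * u))
    have h2 : z ∈ Subgroup.zpowers (z * u) ⊔ Subgroup.zpowers z :=
      le_sup_right (a := Subgroup.zpowers (z * u)) (Subgroup.mem_zpowers z)
    have h3 : z⁻¹ * (z * u) = u := by group
    have h4 := Subgroup.mul_mem _ (Subgroup.inv_mem _ h2) h1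
    rwa [h3] at h4

/-- the induction step -/
theorem watl_step (ih : ∀ u : G, Cx u ≠ ⊤ → ∀ [Fintype (Cx u)], WStmt hM (Cx u)) :
    WStmt hM G := by
  classical
  intro B P e hB hmax hab z hz hzT b hb
  have he : IsBP p P e := hmax.1.1
  obtain ⟨X, hX1, hX2⟩ := Cfsg.Agent.Lib.Helper5.exists_pReps (p := p) (G := G)
  have hX : PReps p X := ⟨hX1, hX2⟩
  have hfin : ∀ x : G, Finite (IrrCharacter (Cx x)) := fun x => Cfsg.Agent.Lib.Helper20.finite_irrCharacter
  haveI : ∀ x : G, Fintype (Set (IrrCharacter (Cx x))) := fun x => Fintype.ofFinite _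
  let F : P → ℂ := fun u => (ell hM P e (Cx (u : G)) : ℂ) *
    (Nat.card (stabP P e ⊓ Cx (u : G) : Subgroup G) : ℂ)
  have hF : ∀ lam : P →* ℂˣ, InvL P (stabP P e) lam → lam ≠ 1 →
      ∑ u : P, ((lam u : ℂˣ) : ℂ) * F u = 0 := by
    intro lam hinv hne
    have h1 := genw hM hB hmax hab hX (extL lam) (by
      intro y hy u hu
      have hyu : y * u * y⁻¹ ∈ P := by
        have := (Subgroup.mem_normalizer_iff.1 hy.1 u).1 hu
        exact this
      rw [extL_mem lam hyu, extL_mem lam hu, hinv y hy ⟨u, hu⟩ hyu])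
    rw [trace_zero hM hB hmax hab hX lam hinv hne, mul_zero] at h1
    rw [h1]
    apply Finset.sum_congr rfl; intro u _
    rw [extL_coe, mul_assoc]
  obtain ⟨K, hK1, hK2⟩ := four P (stabP P e) he.1 hab (stabP_le_Nn P e)
    (fun t ht htp => pelt_mem_Cn hM hmax hab ht htp) F hF
  have h2 := hK2 ⟨z, hz⟩
  have h3 : ∀ u : P, u ∈ K → u ≠ 1 → F (⟨z, hz⟩ * u) = F u := by
    intro u hu hu1
    have hnf : ¬ ∀ y ∈ stabP P e, y * (u : G) * y⁻¹ = (u : G) := fun h => hu1 (hK1 u hu h)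
    push Not at hnf
    obtain ⟨y, hy, hyu⟩ := hnf
    have hne1 : Cx (u : G) ≠ ⊤ := by
      intro h
      apply hyu
      have : y ∈ Cx (u : G) := by rw [h]; exact Subgroup.mem_top y
      rw [mem_Cx] at this
      rw [← this]; group
    have hne2 : Cx (z * (u : G)) ≠ ⊤ := by
      intro h
      apply hyu
      have h4 : y ∈ stabP P e ⊓ Cx (z * (u : G)) := ⟨hy, by rw [h]; exact Subgroup.mem_top y⟩
      rw [inf_Cx_mul_eq hzT] at h4
      have := mem_Cx.1 h4.2
      rw [← this]; group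
    have l1 := loc hM hmax hab u.2 hz (ih (u : G) hne1) (fun g hg _ => hzT g hg)
    have l2 := loc hM hmax hab (P.mul_mem hz u.2) hz (ih (z * (u : G)) hne2)
      (fun g hg _ => hzT g hg)
    show (ell hM P e (Cx (z * (u : G))) : ℂ) *
      (Nat.card (stabP P e ⊓ Cx (z * (u : G)) : Subgroup G) : ℂ) = _
    rw [l2, zpowers_mul_sup, ← l1, inf_Cx_mul_eq hzT]
  have h4 : F (⟨z, hz⟩ * 1) = F 1 := by
    rw [← Finset.add_sum_erase _ _ (Finset.mem_univ (1 : P)),
      ← Finset.add_sum_erase _ _ (Finset.mem_univ (1 : P)), if_pos K.one_mem,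
      if_pos K.one_mem] at h2
    have h5 : ∑ u ∈ Finset.univ.erase (1 : P), (if u ∈ K then F (⟨z, hz⟩ * u) else 0)
        = ∑ u ∈ Finset.univ.erase (1 : P), (if u ∈ K then F u else 0) := by
      apply Finset.sum_congr rfl; intro u hu
      by_cases huK : u ∈ K
      · rw [if_pos huK, if_pos huK, h3 u huK (Finset.ne_of_mem_erase hu)]
      · rw [if_neg huK, if_neg huK]
    rw [h5] at h2
    exact add_right_cancel h2
  have h6 : (ell hM P e (Cx z) : ℂ) * (Nat.card (stabP P e ⊓ Cx z : Subgroup G) : ℂ)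
      = (ell hM P e (Cx (1 : G)) : ℂ) * (Nat.card (stabP P e ⊓ Cx (1 : G) : Subgroup G) : ℂ) := by
    have := h4
    rw [mul_one] at this
    exact this
  rw [inf_Cx_eq_of_fixed hzT, Cx_one_eq_top, inf_top_eq] at h6
  have hT0 : (Nat.card (stabP P e) : ℂ) ≠ 0 := by
    exact_mod_cast Nat.card_pos.ne'
  have h7 := mul_right_cancel₀ hT0 h6
  have h8 : ell hM P e (Cx z) = ell hM P e (⊤ : Subgroup G) := by exact_mod_cast h7
  rw [← Cx_one_eq_top, ell_one hM hB hmax, ell_eq hM he (le_Cx_of_abelian hab hz) hb] at h8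
  exact h8.symm

/-- the `l`-part -/
theorem watl_aux : ∀ (n : ℕ) (G : Type u) [Group G] [Fintype G], Nat.card G = n →
    WStmt hM G := by
  intro n
  induction n using Nat.strong_induction_on with
  | _ n ih =>
    intro G _ _ hn
    apply watl_step hM
    intro u hu _
    apply ih (Nat.card (Cx u)) _ (Cx u) rfl
    rw [← hn]
    have h1 : Nat.card (Cx u) ≤ Nat.card G := Subgroup.card_le_card_group _
    rcases h1.lt_or_eq with h | h
    · exact h
    · exact absurd (Subgroup.eq_top_of_card_eq _ h) hu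

theorem watl (G : Type u) [Group G] [Fintype G] : WStmt hM G := watl_aux hM _ G rfl

/-- the `k`-part -/
theorem watk {B : Set (IrrCharacter G)} (hB : IsPBlock M B) {P : Subgroup G}
    {e : GA (Kr hM) G} (hmax : IsMaxBP p (blkR hM B) P e)
    (hab : ∀ x ∈ P, ∀ y ∈ P, x * y = y * x) {z : G} (hz : z ∈ P)
    (hzT : ∀ g ∈ stabP P e, g * z * g⁻¹ = z) {b : Set (IrrCharacter (Cx z))}
    (hb : Bel hM P e (Cx z) b) : Nat.card B = Nat.card b := by
  classical
  have h1 := genk hM hB hmax hab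
  have h2 := genk_loc hM hB hmax hab hz hzT hb
  have h3 : (Nat.card (stabP P e) : ℂ) * (Nat.card B : ℂ)
      = (Nat.card (stabP P e) : ℂ) * (Nat.card b : ℂ) := by
    rw [h1, h2]
    apply Finset.sum_congr rfl; intro u _
    rw [loc hM hmax hab u.2 hz (watl hM (Cx (u : G))) (fun g hg _ => hzT g hg), sup_comm]
  have hT0 : (Nat.card (stabP P e) : ℂ) ≠ 0 := by
    exact_mod_cast Nat.card_pos.ne'
  exact_mod_cast mul_left_cancel₀ hT0 h3

end Cfsg.Agent.Lib.Helper83.Wat
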