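import Cfsg.Agent.Lib.Helper83.Wat.Base

set_option autoImplicit false
set_option linter.unusedSectionVars false
set_option linter.style.haveILetI false

/-! Ladder WAT (S4644), rung BEL. -/

namespace Cfsg.Agent.Lib.Helper83.Wat

open scoped BigOperators
open Cfsg Cfsg.Agent.Lib.Helper80 Cfsg.Agent.Lib.Helper80.GA Cfsg.Agent.Lib.Helper81
open Cfsg.Agent.Lib.Helper83.Star

universe u

variable {p : ℕ} [Fact p.Prime] {M : Ideal AlgInt} (hM : IsPModular p M)
  {G : Type u} [Group G] [Fintype G]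

theorem bel_unique {P : Subgroup G} {e : GA (Kr hM) G} (he : IsBP p P e) {H : Subgroup G}
    (hPH : P ≤ H) {b b' : Set (IrrCharacter H)} (h : Bel hM P e H b) (h' : Bel hM P e H b') :
    b = b' := by
  have hb := isBlk_bl hM H h.1
  have hb' := isBlk_bl hM H h'.1
  rcases hb.eq_or_orth hb' with h1 | h1
  · exact bl_injective hM H h.1 h'.1 h1
  · exfalso
    apply he.2.ne_zero
    have h2 : br P (bl hM H b * bl hM H b') = br P (bl hM H b) * br P (bl hM H b') :=
      br_mul he.1 (hb.inZ.2.mono hPH) (hb'.inZ.2.mono hPH)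
    calc e = br P (bl hM H b) * e := h.2.symm
      _ = br P (bl hM H b) * (br P (bl hM H b') * e) := by rw [h'.2]
      _ = br P (bl hM H b * bl hM H b') * e := by rw [h2, mul_assoc]
      _ = 0 := by rw [h1]; simp [br_zero]

theorem bel_exists {P : Subgroup G} {e : GA (Kr hM) G} (he : IsBP p P e)
    (hab : ∀ x ∈ P, ∀ y ∈ P, x * y = y * x) {R : Subgroup G} (hR : R ≤ P) {H : Subgroup G}
    (hH : H = Cn R) : ∃ b, Bel hM P e H b := by
  subst hH
  have hPC : P ≤ Cn R := le_Cn_of_abelian hab hR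
  obtain ⟨f, hf, -⟩ := he.existsUnique_nsub hR (hPC.trans (Cn_le_Nn R))
  obtain ⟨b, hb, hbeq⟩ := exists_block_of_isBlk_sub hM _ hf.1.2
  exact ⟨b, hb, by rw [← hbeq]; exact hf.2.2.2.2.2⟩

theorem bel_bple {P : Subgroup G} {e : GA (Kr hM) G} (he : IsBP p P e)
    (hab : ∀ x ∈ P, ∀ y ∈ P, x * y = y * x) {R : Subgroup G} (hR : R ≤ P) {H : Subgroup G}
    (hH : H = Cn R) {b : Set (IrrCharacter H)} (h : Bel hM P e H b) :
    BPLE p (R, bl hM H b) (P, e) := by
  subst hH
  have hPC : P ≤ Cn R := le_Cn_of_abelian hab hR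
  have hb := isBlk_bl hM (Cn R) h.1
  exact Relation.ReflTransGen.single
    ⟨⟨he.1.to_le hR, hb⟩, he, hR, hPC.trans (Cn_le_Nn R), hb.inZ.2.mono hPC, h.2⟩

theorem bel_iff_bple {P : Subgroup G} {e : GA (Kr hM) G} (he : IsBP p P e)
    (hab : ∀ x ∈ P, ∀ y ∈ P, x * y = y * x) {R : Subgroup G} (hR : R ≤ P) {H : Subgroup G}
    (hH : H = Cn R) (b : Set (IrrCharacter H)) :
    Bel hM P e H b ↔ IsPBlock M b ∧ BPLE p (R, bl hM H b) (P, e) := by
  constructor
  · intro h
    exact ⟨h.1, bel_bple hM he hab hR hH h⟩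
  · rintro ⟨h1, h2⟩
    obtain ⟨b₀, hb₀⟩ := bel_exists hM he hab hR hH
    have h3 := bel_bple hM he hab hR hH hb₀
    have h4 : bl hM H b₀ = bl hM H b := he.subpair_unique _ R _ _ rfl h3 h2
    exact ⟨h1, by rw [← h4]; exact hb₀.2⟩

theorem bb_spec {P : Subgroup G} {e : GA (Kr hM) G} {H : Subgroup G}
    (h : ∃ b, Bel hM P e H b) : Bel hM P e H (bb hM P e H) := by
  unfold bb; rw [dif_pos h]; exact h.choose_spec

theorem bb_eq {P : Subgroup G} {e : GA (Kr hM) G} (he : IsBP p P e) {H : Subgroup G}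
    (hPH : P ≤ H) {b : Set (IrrCharacter H)} (h : Bel hM P e H b) : bb hM P e H = b :=
  bel_unique hM he hPH (bb_spec hM ⟨b, h⟩) h

theorem ell_eq {P : Subgroup G} {e : GA (Kr hM) G} (he : IsBP p P e) {H : Subgroup G}
    (hPH : P ≤ H) {b : Set (IrrCharacter H)} (h : Bel hM P e H b) :
    ell hM P e H = blockRank p b := by
  unfold ell; rw [bb_eq hM he hPH h]

end Cfsg.Agent.Lib.Helper83.Wat
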