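import Cfsg.Agent.Lib.Helper83.Wat.Base
import Cfsg.Agent.Lib.Helper83.Wat.BEL
import Cfsg.Agent.Lib.Helper80.GAFusT
import Cfsg.Agent.Lib.Helper80.GAKer

set_option autoImplicit false
set_option linter.unusedSectionVars false
set_option linter.style.haveILetI false

/-! Ladder WAT (S4644), rung TR1. -/

namespace Cfsg.Agent.Lib.Helper83.Wat

open scoped BigOperators
open Cfsg Cfsg.Agent.Lib.Helper80 Cfsg.Agent.Lib.Helper80.GA Cfsg.Agent.Lib.Helper81
open Cfsg.Agent.Lib.Helper83.Star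

universe u

variable {p : ℕ} [Fact p.Prime] {M : Ideal AlgInt} (hM : IsPModular p M)
  {G : Type u} [Group G] [Fintype G]

theorem isMaxBP_loc {B : Set (IrrCharacter G)} {P : Subgroup G} {e : GA (Kr hM) G}
    (hmax : IsMaxBP p (blkR hM B) P e) (hab : ∀ x ∈ P, ∀ y ∈ P, x * y = y * x) {R : Subgroup G}
    (hR : R ≤ P) {L : Subgroup G} (hL : L = Cn R) [Fintype L] {b : Set (IrrCharacter L)}
    (hb : Bel hM P e L b) : IsMaxBP p (blkR hM b) (P.subgroupOf L) (rst L e) := by
  have he : IsBP p P e := hmax.1.1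
  have hPL : P ≤ L := by rw [hL]; exact le_Cn_of_abelian hab hR
  have hCL : Cn P ≤ L := by rw [hL]; exact Cn_anti hR
  have hle : BPLE p (R, bl hM L b) (P, e) := bel_bple hM he hab hR hL hb
  have hdefG : IsDef p L (bl hM L b) P := by
    have := hmax.abelian_isDef_Cn hab hle
    rwa [← hL] at this
  have hdef : IsDef p ⊤ (blkR hM b) (P.subgroupOf L) :=
    isDef_of_isDefectGroup hM hb.1 ((isDefectGroup_sub_iff hM L hb.1 hPL).2 hdefG)
  have hup : up L (P.subgroupOf L) = P := up_subgroupOf L hPL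
  have hemb : emb L (rst L e) = e := emb_rst L (he.2.inZ.1.mono hCL)
  have hupC : up L (Cn (P.subgroupOf L)) = Cn P := by
    rw [up_Cn, hup]; exact inf_eq_right.2 hCL
  have hblk : IsBlk (Cn (P.subgroupOf L)) (rst L e) := by
    rw [← isBlk_up_iff, hupC, hemb]; exact he.2
  have hbp : IsBP p (P.subgroupOf L) (rst L e) := ⟨hdef.pgroup, hblk⟩
  have hof : IsBPOf p (blkR hM b) (P.subgroupOf L) (rst L e) := by
    refine ⟨hbp, isBlk_blkR hM hb.1, ?_⟩
    apply emb_injective L
    rw [emb_mul, emb_br, hup, hemb, ← bl_eq_emb, hb.2]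
  exact hof.isMaxBP_of_isDef hdef

theorem mem_stabP_loc {P : Subgroup G} {e : GA (Kr hM) G} (he : IsBP p P e) {L : Subgroup G}
    (hPL : P ≤ L) (hCL : Cn P ≤ L) [Fintype L] (x : L) :
    x ∈ stabP (P.subgroupOf L) (rst L e) ↔ (x : G) ∈ stabP P e := by
  have hup : up L (P.subgroupOf L) = P := up_subgroupOf L hPL
  have hemb : emb L (rst L e) = e := emb_rst L (he.2.inZ.1.mono hCL)
  rw [mem_stabP, mem_stabP]
  have h1 : x ∈ Nn (P.subgroupOf L) ↔ (x : G) ∈ Nn P := by
    rw [← coe_mem_up L (R := Nn (P.subgroupOf L)), up_Nn, hup, Subgroup.mem_inf]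
    exact ⟨fun h => h.2, fun h => ⟨x.2, h⟩⟩
  have h2 : cj x (rst L e) = rst L e ↔ cj (x : G) e = e := by
    constructor
    · intro h
      have := congrArg (emb L) h
      rwa [emb_cj, hemb] at this
    · intro h
      apply emb_injective L
      rw [emb_cj, hemb, h]
  rw [h1, h2]

end Cfsg.Agent.Lib.Helper83.Wat
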