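import Cfsg.Agent.Lib.Helper81.StarHub
import Cfsg.Agent.Lib.Helper81.StarIrr
import Cfsg.Agent.Lib.Helper80.GAAb
import Cfsg.Agent.Lib.Helper80.GANilB
import Cfsg.Agent.Lib.Helper80.GASplitK

set_option autoImplicit false
set_option linter.unusedSectionVars false
set_option linter.style.haveILetI false

/-! Ladder WAT (S4644): definitions. -/

namespace Cfsg.Agent.Lib.Helper83.Wat

open scoped BigOperators
open Cfsg Cfsg.Agent.Lib.Helper80 Cfsg.Agent.Lib.Helper80.GA Cfsg.Agent.Lib.Helper81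

universe u

variable {p : ℕ} [Fact p.Prime] {M : Ideal AlgInt} (hM : IsPModular p M)
  {G : Type u} [Group G] [Fintype G]

/-- `b` is a block of `H` lying below the pair `(P, e)` (used for `P` abelian, `H = C_G(R)`,
`R ≤ P`) -/
def Bel (P : Subgroup G) (e : GA (Kr hM) G) (H : Subgroup G) (b : Set (IrrCharacter H)) : Prop :=
  IsPBlock M b ∧ br P (bl hM H b) * e = e

/-- the block of `H` below `(P, e)` -/
noncomputable def bb (P : Subgroup G) (e : GA (Kr hM) G) (H : Subgroup G) :
    Set (IrrCharacter H) := by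
  classical exact if h : ∃ b, Bel hM P e H b then h.choose else ∅

/-- its rank -/
noncomputable def ell (P : Subgroup G) (e : GA (Kr hM) G) (H : Subgroup G) : ℕ :=
  blockRank p (bb hM P e H)

/-- the `l`-part of Watanabe's theorem for the group `G` -/
def WStmt (G : Type u) [Group G] [Fintype G] : Prop :=
  ∀ (B : Set (IrrCharacter G)) (P : Subgroup G) (e : GA (Kr hM) G), IsPBlock M B →
    IsMaxBP p (blkR hM B) P e → (∀ x ∈ P, ∀ y ∈ P, x * y = y * x) →
    ∀ z ∈ P, (∀ g ∈ stabP P e, g * z * g⁻¹ = z) →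
    ∀ b : Set (IrrCharacter (Cx z)), Bel hM P e (Cx z) b → blockRank p B = blockRank p b

/-- extension by zero of a linear character of `P` -/
noncomputable def extL {P : Subgroup G} (lam : P →* ℂˣ) : G → ℂ :=
  fun g => by classical exact if h : g ∈ P then ((lam ⟨g, h⟩ : ℂˣ) : ℂ) else 0

/-- invariance of a linear character of `P` under a subgroup `T` -/
def InvL (P T : Subgroup G) (lam : P →* ℂˣ) : Prop :=
  ∀ y ∈ T, ∀ u : P, ∀ h : y * (u : G) * y⁻¹ ∈ P, lam ⟨y * (u : G) * y⁻¹, h⟩ = lam u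

/-- the subsection `(x, b)` covers the element `u` -/
def Cov (P : Subgroup G) (e : GA (Kr hM) G) (x : G) (b : Set (IrrCharacter (Cx x))) (u : G) :
    Prop :=
  ∃ t, Carries hM P e x b t ∧ t * x * t⁻¹ = u

theorem extL_mem {P : Subgroup G} (lam : P →* ℂˣ) {g : G} (h : g ∈ P) :
    extL lam g = ((lam ⟨g, h⟩ : ℂˣ) : ℂ) := by
  unfold extL; rw [dif_pos h]

theorem extL_coe {P : Subgroup G} (lam : P →* ℂˣ) (u : P) :
    extL lam (u : G) = ((lam u : ℂˣ) : ℂ) := extL_mem lam u.2

end Cfsg.Agent.Lib.Helper83.Wat
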