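import Cfsg.Agent.Lib.Helper83.Wat.Base

set_option autoImplicit false
set_option linter.unusedSectionVars false
set_option linter.style.haveILetI false

/-! Ladder WAT (S4644), rung ISO. -/

namespace Cfsg.Agent.Lib.Helper83.Wat

open scoped BigOperators
open Cfsg Cfsg.Agent.Lib.Helper80 Cfsg.Agent.Lib.Helper80.GA Cfsg.Agent.Lib.Helper81
open Cfsg.Agent.Lib.Helper83.Star

universe u

variable {p : ℕ} [Fact p.Prime] {M : Ideal AlgInt} (hM : IsPModular p M)
  {G : Type u} [Group G] [Fintype G]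

theorem iso_pRegularPart {A A' : Type*} [Group A] [Group A'] (φ : A ≃* A') (χ : A' → ℂ) :
    pRegularPart p (χ ∘ φ) = (pRegularPart p χ) ∘ φ := by
  funext a
  have h : IsPRegular p (φ a) ↔ IsPRegular p a := by
    unfold IsPRegular
    rw [MulEquiv.orderOf_eq φ a]
  unfold pRegularPart
  by_cases ha : IsPRegular p a
  · simp only [Function.comp_apply]
    rw [if_pos ha, if_pos (h.2 ha)]
  · simp only [Function.comp_apply]
    rw [if_neg ha, if_neg (mt h.1 ha)]

theorem rank_iso {A A' : Type*} [Group A] [Group A'] (φ : A ≃* A') (f : Set (IrrCharacter A')) :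
    blockRank p (irrMap φ '' f) = blockRank p f ∧ Nat.card (irrMap φ '' f) = Nat.card f := by
  refine ⟨?_, Nat.card_image_of_injective (irrMap φ).injective f⟩
  unfold blockRank
  set L : (A' → ℂ) ≃ₗ[ℂ] (A → ℂ) := LinearEquiv.funCongrLeft ℂ ℂ φ.toEquiv with hL
  have h1 : ((fun χ : IrrCharacter A => pRegularPart p (χ : A → ℂ)) '' (irrMap φ '' f))
      = L '' ((fun χ : IrrCharacter A' => pRegularPart p (χ : A' → ℂ)) '' f) := by
    rw [Set.image_image, Set.image_image]
    refine Set.image_congr (fun χ _ => ?_)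
    exact iso_pRegularPart φ (χ : A' → ℂ)
  rw [h1]
  have h2 : Submodule.span ℂ (L '' ((fun χ : IrrCharacter A' => pRegularPart p (χ : A' → ℂ)) '' f))
      = (Submodule.span ℂ ((fun χ : IrrCharacter A' => pRegularPart p (χ : A' → ℂ)) '' f)).map
        (L : (A' → ℂ) →ₗ[ℂ] (A → ℂ)) := by
    rw [Submodule.map_span]
    rfl
  rw [h2]
  exact LinearEquiv.finrank_map_eq L _

theorem rank_transfer {G₁ G₂ : Type*} [Group G₁] [Fintype G₁] [Group G₂] [Fintype G₂]
    (ψ : G₁ →* G₂) (hψ : Function.Injective ψ) (H₁ : Subgroup G₁) (H₂ : Subgroup G₂)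
    (hH : H₂ = H₁.map ψ) {b₁ : Set (IrrCharacter H₁)} {b₂ : Set (IrrCharacter H₂)}
    (h₁ : IsPBlock M b₁) (h₂ : IsPBlock M b₂)
    (h : ∀ g : G₁, bl hM H₂ b₂ (ψ g) = bl hM H₁ b₁ g) :
    blockRank p b₁ = blockRank p b₂ ∧ Nat.card b₁ = Nat.card b₂ := by
  classical
  subst hH
  haveI : Fintype H₁ := Fintype.ofFinite H₁
  haveI : Fintype (H₁.map ψ) := Fintype.ofFinite _
  set φ : H₁ ≃* H₁.map ψ := Subgroup.equivMapOfInjective H₁ ψ hψ with hφ
  have hb : b₁ = irrMap φ '' b₂ := by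
    apply blkR_injective hM h₁ (isPBlock_image φ h₂)
    ext a
    have e1 := h (a : G₁)
    rw [bl_eq_emb, bl_eq_emb, emb_coe] at e1
    rw [← e1]
    have hmem : ψ (a : G₁) ∈ H₁.map ψ := Subgroup.mem_map_of_mem ψ a.2
    rw [emb_apply_mem _ _ hmem]
    show resC hM _ = resC hM _
    rw [blockCoeff_image]
    rfl
  rw [hb]
  exact rank_iso φ b₂

theorem rank_transfer_top (H : Subgroup G) (hH : H = ⊤) {b : Set (IrrCharacter H)}
    {B : Set (IrrCharacter G)} (hb : IsPBlock M b) (hB : IsPBlock M B)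
    (h : bl hM H b = blkR hM B) :
    blockRank p B = blockRank p b ∧ Nat.card B = Nat.card b := by
  classical
  subst hH
  haveI : Fintype (⊤ : Subgroup G) := Fintype.ofFinite _
  set φ : (⊤ : Subgroup G) ≃* G := Subgroup.topEquiv with hφ
  have hbB : b = irrMap φ '' B := by
    apply blkR_injective hM hb (isPBlock_image φ hB)
    ext a
    have e1 : bl hM ⊤ b (a : G) = blkR hM B (a : G) := by rw [h]
    rw [bl_eq_emb, emb_coe] at e1
    rw [e1]
    show resC hM _ = resC hM _
    rw [blockCoeff_image]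
    rfl
  rw [hbB]
  exact ⟨(rank_iso (p := p) φ B).1.symm, (rank_iso (p := p) φ B).2.symm⟩

end Cfsg.Agent.Lib.Helper83.Wat
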