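import Cfsg.Agent.Lib.Helper83.Wat.Base
import Cfsg.Agent.Lib.Helper83.Wat.BEL
import Cfsg.Agent.Lib.Helper83.Wat.CTRL
import Cfsg.Agent.Lib.Helper83.Wat.ISO

set_option autoImplicit false
set_option linter.unusedSectionVars false
set_option linter.style.haveILetI false

/-! Ladder WAT (S4644), rung COV. -/

namespace Cfsg.Agent.Lib.Helper83.Wat

open scoped BigOperators
open Cfsg Cfsg.Agent.Lib.Helper80 Cfsg.Agent.Lib.Helper80.GA Cfsg.Agent.Lib.Helper81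
open Cfsg.Agent.Lib.Helper83.Star

universe u

variable {p : ℕ} [Fact p.Prime] {M : Ideal AlgInt} (hM : IsPModular p M)
  {G : Type u} [Group G] [Fintype G]

theorem cov_exists {B : Set (IrrCharacter G)} (hB : IsPBlock M B) {P : Subgroup G}
    {e : GA (Kr hM) G} (hmax : IsMaxBP p (blkR hM B) P e) {X : Finset G} (hX : PReps p X) {u : G}
    (hu : u ∈ P) : ∃ x ∈ X, ∃ b, IsInducedBlock M (Cx x) b B ∧ Cov hM P e x b u := by
  obtain ⟨x, hx, b, t, h1, h2, h3, -⟩ := exists_cover hM hB hmax hX hu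
  exact ⟨x, hx, b, h1, t, h2, h3⟩

theorem cov_unique_left {P : Subgroup G} {e : GA (Kr hM) G} {X : Finset G} (hX : PReps p X)
    {x x' u : G} (hx : x ∈ X) (hx' : x' ∈ X) {b : Set (IrrCharacter (Cx x))}
    {b' : Set (IrrCharacter (Cx x'))} (h : Cov hM P e x b u) (h' : Cov hM P e x' b' u) :
    x = x' := by
  obtain ⟨t, -, ht⟩ := h
  obtain ⟨t', -, ht'⟩ := h'
  obtain ⟨w, -, hw⟩ := hX.rep x (hX.pow x hx)
  rw [hw x ⟨hx, IsConj.refl x⟩]
  symm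
  apply hw x' ⟨hx', ?_⟩
  rw [_root_.isConj_iff]
  refine ⟨t'⁻¹ * t, ?_⟩
  calc t'⁻¹ * t * x * (t'⁻¹ * t)⁻¹ = t'⁻¹ * (t * x * t⁻¹) * t' := by group
    _ = t'⁻¹ * (t' * x' * t'⁻¹) * t' := by rw [ht, ht']
    _ = x' := by group

theorem cov_unique_right {P : Subgroup G} {e : GA (Kr hM) G} (he : IsBP p P e) {x u : G}
    {b b' : Set (IrrCharacter (Cx x))} (hb : IsPBlock M b) (hb' : IsPBlock M b')
    (h : Cov hM P e x b u) (h' : Cov hM P e x b' u) : b = b' := by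
  obtain ⟨t, hc, ht⟩ := h
  obtain ⟨t', hc', ht'⟩ := h'
  unfold Carries at hc hc'
  rw [Cfsg.Agent.Lib.Helper5.cS_zpowers, ht] at hc
  rw [Cfsg.Agent.Lib.Helper5.cS_zpowers, ht'] at hc'
  have h1 : cj t (bl hM (Cx x) b) = cj t' (bl hM (Cx x) b') :=
    he.subpair_unique _ _ _ _ rfl hc hc'
  have h2 : t'⁻¹ * t ∈ Cx x := by
    rw [mem_Cx]
    have h3 : t * x * t⁻¹ = t' * x * t'⁻¹ := by rw [ht, ht']
    calc x * (t'⁻¹ * t) = t'⁻¹ * (t' * x * t'⁻¹) * t := by group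
      _ = t'⁻¹ * (t * x * t⁻¹) * t := by rw [h3]
      _ = t'⁻¹ * t * x := by group
  have h4 : cj (t'⁻¹ * t) (bl hM (Cx x) b) = bl hM (Cx x) b := (isBlk_bl hM _ hb).inZ.2 _ h2
  apply bl_injective hM _ hb hb'
  rw [← h4, ← cj_cj, h1, cj_inv_cj]

theorem cov_orbit {c e : GA (Kr hM) G} {P : Subgroup G} (hmax : IsMaxBP p c P e)
    (hab : ∀ x ∈ P, ∀ y ∈ P, x * y = y * x) {x u₀ u : G} {b : Set (IrrCharacter (Cx x))}
    (h0 : Cov hM P e x b u₀) :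
    Cov hM P e x b u ↔ ∃ y ∈ stabP P e, u = y * u₀ * y⁻¹ := by
  obtain ⟨t₀, hc₀, ht₀⟩ := h0
  constructor
  · rintro ⟨t, hc, ht⟩
    unfold Carries at hc hc₀
    have h2 : BPLE p (cS (t * t₀⁻¹) (cS t₀ (Subgroup.zpowers x)),
        cj (t * t₀⁻¹) (cj t₀ (bl hM (Cx x) b))) (P, e) := by
      rw [cS_cS, cj_cj, inv_mul_cancel_right]; exact hc
    obtain ⟨y, hy, c, hcc, hyc⟩ := ctrl hM hmax hab hc₀ h2
    refine ⟨y, hy, ?_⟩
    rw [Cfsg.Agent.Lib.Helper5.cS_zpowers, ht₀] at hcc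
    have h3 : u₀ * c = c * u₀ := mem_Cn.1 hcc u₀ (Subgroup.mem_zpowers u₀)
    calc u = (t * t₀⁻¹) * u₀ * (t * t₀⁻¹)⁻¹ := by rw [← ht, ← ht₀]; group
      _ = y * (c * u₀) * c⁻¹ * y⁻¹ := by rw [hyc]; group
      _ = y * (u₀ * c) * c⁻¹ * y⁻¹ := by rw [h3]
      _ = y * u₀ * y⁻¹ := by group
  · rintro ⟨y, hy, rfl⟩
    refine ⟨y * t₀, ?_, by rw [← ht₀]; group⟩
    unfold Carries at hc₀ ⊢
    have h1 := hc₀.cj y
    simp only at h1
    rw [cS_cS, cj_cj, cS_eq_self_of_mem_Nn hy.1, hy.2] at h1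
    exact h1

theorem cov_Upt {P : Subgroup G} {e : GA (Kr hM) G} {x u : G} {b : Set (IrrCharacter (Cx x))}
    (h : Cov hM P e x b u) : Cov hM P e x b (Upt hM P e x b) := by
  obtain ⟨t, ht, -⟩ := h
  exact ⟨gam hM P e x b, carries_gam hM ⟨t, ht⟩, rfl⟩

theorem cov_ell {P : Subgroup G} {e : GA (Kr hM) G} (he : IsBP p P e)
    (hab : ∀ x ∈ P, ∀ y ∈ P, x * y = y * x) {x u : G} {b : Set (IrrCharacter (Cx x))}
    (hb : IsPBlock M b) (h : Cov hM P e x b u) : ell hM P e (Cx u) = blockRank p b := by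
  obtain ⟨t, hc, ht⟩ := h
  have hu : u ∈ P := ht ▸ hc.mem
  have hR : Subgroup.zpowers u ≤ P := by rw [Subgroup.zpowers_le]; exact hu
  unfold Carries at hc
  rw [Cfsg.Agent.Lib.Helper5.cS_zpowers, ht] at hc
  obtain ⟨b₁, hb₁⟩ := bel_exists hM he hab hR (Cx_eq u)
  have h1 : bl hM (Cx u) b₁ = cj t (bl hM (Cx x) b) :=
    he.subpair_unique _ _ _ _ rfl (bel_bple hM he hab hR (Cx_eq u) hb₁) hc
  have hPu : P ≤ Cx u := fun y hy => mem_Cx.2 (hab u hu y hy)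
  rw [ell_eq hM he hPu hb₁]
  have hH : Cx u = (Cx x).map (MulAut.conj t).toMonoidHom := by
    ext g
    rw [Subgroup.mem_map]
    constructor
    · intro hg
      refine ⟨t⁻¹ * g * t, ?_, by simp [MulAut.conj_apply, mul_assoc]⟩
      rw [mem_Cx] at hg ⊢
      rw [← ht] at hg
      calc x * (t⁻¹ * g * t) = t⁻¹ * ((t * x * t⁻¹) * g) * t := by group
        _ = t⁻¹ * (g * (t * x * t⁻¹)) * t := by rw [hg]
        _ = t⁻¹ * g * t * x := by group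
    · rintro ⟨c, hc', rfl⟩
      have hc'' := mem_Cx.1 hc'
      rw [mem_Cx, ← ht]
      show t * x * t⁻¹ * (t * c * t⁻¹) = t * c * t⁻¹ * (t * x * t⁻¹)
      calc t * x * t⁻¹ * (t * c * t⁻¹) = t * (x * c) * t⁻¹ := by group
        _ = t * (c * x) * t⁻¹ := by rw [hc'']
        _ = t * c * t⁻¹ * (t * x * t⁻¹) := by group
  refine ((rank_transfer hM (MulAut.conj t).toMonoidHom (MulAut.conj t).injective (Cx x) (Cx u) hH
    hb hb₁.1 ?_).1).symm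
  intro g
  rw [h1, cj_apply]
  congr 1
  show t⁻¹ * (t * g * t⁻¹) * t = g
  group

end Cfsg.Agent.Lib.Helper83.Wat
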