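import Cfsg.Agent.Lib.Helper83.Wat.Base
import Cfsg.Agent.Lib.Helper83.Wat.BEL
import Cfsg.Agent.Lib.Helper83.Wat.ISO

set_option autoImplicit false
set_option linter.unusedSectionVars false
set_option linter.style.haveILetI false

/-! Ladder WAT (S4644), rung ELLLOC. -/

namespace Cfsg.Agent.Lib.Helper83.Wat

open scoped BigOperators
open Cfsg Cfsg.Agent.Lib.Helper80 Cfsg.Agent.Lib.Helper80.GA Cfsg.Agent.Lib.Helper81
open Cfsg.Agent.Lib.Helper83.Star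

universe u

variable {p : ℕ} [Fact p.Prime] {M : Ideal AlgInt} (hM : IsPModular p M)
  {G : Type u} [Group G] [Fintype G]

theorem ell_loc {P : Subgroup G} {e : GA (Kr hM) G} (he : IsBP p P e)
    (hab : ∀ x ∈ P, ∀ y ∈ P, x * y = y * x) {u z : G} (hu : u ∈ P) (hz : z ∈ P)
    [Fintype (Cx u)] (hzL : z ∈ Cx u) :
    ell hM (P.subgroupOf (Cx u)) (rst (Cx u) e) (Cx (⟨z, hzL⟩ : Cx u))
      = ell hM P e (Cn (Subgroup.zpowers u ⊔ Subgroup.zpowers z)) := by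
  classical
  have hPL : P ≤ Cx u := fun x hx => mem_Cx.2 (hab u hu x hx)
  have hCL : Cn P ≤ Cx u := fun g hg => mem_Cx.2 (mem_Cn.1 hg u hu)
  have hup : up (Cx u) (P.subgroupOf (Cx u)) = P := up_subgroupOf (Cx u) hPL
  have hemb : emb (Cx u) (rst (Cx u) e) = e := emb_rst (Cx u) (he.2.inZ.1.mono hCL)
  have hupC : up (Cx u) (Cn (P.subgroupOf (Cx u))) = Cn P := by
    rw [up_Cn, hup]; exact inf_eq_right.2 hCL
  have hblk : IsBlk (Cn (P.subgroupOf (Cx u))) (rst (Cx u) e) := by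
    rw [← isBlk_up_iff, hupC, hemb]; exact he.2
  have hpg : IsPGroup p (P.subgroupOf (Cx u)) := by
    rw [← isPGroup_up (Cx u), hup]; exact he.1
  have hbp : IsBP p (P.subgroupOf (Cx u)) (rst (Cx u) e) := ⟨hpg, hblk⟩
  have hab' : ∀ x ∈ P.subgroupOf (Cx u), ∀ y ∈ P.subgroupOf (Cx u), x * y = y * x := by
    intro x hx y hy
    apply Subtype.ext
    exact hab x (Subgroup.mem_subgroupOf.1 hx) y (Subgroup.mem_subgroupOf.1 hy)
  have hz' : (⟨z, hzL⟩ : Cx u) ∈ P.subgroupOf (Cx u) := Subgroup.mem_subgroupOf.2 hz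
  have hR' : Subgroup.zpowers (⟨z, hzL⟩ : Cx u) ≤ P.subgroupOf (Cx u) :=
    (Subgroup.zpowers_le).2 hz'
  obtain ⟨b', hb'⟩ := bel_exists hM hbp hab' hR' (Cx_eq (⟨z, hzL⟩ : Cx u))
  have hmapz : up (Cx u) (Subgroup.zpowers (⟨z, hzL⟩ : Cx u)) = Subgroup.zpowers z := by
    exact MonoidHom.map_zpowers (Cx u).subtype (⟨z, hzL⟩ : Cx u)
  have hH : Cn (Subgroup.zpowers u ⊔ Subgroup.zpowers z)
      = up (Cx u) (Cx (⟨z, hzL⟩ : Cx u)) := by
    rw [Cx_eq (⟨z, hzL⟩ : Cx u), up_Cn, hmapz, Cn_sup, ← Cx_eq u]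
  have hblk2 : IsBlk (Cn (Subgroup.zpowers u ⊔ Subgroup.zpowers z))
      (emb (Cx u) (bl hM (Cx (⟨z, hzL⟩ : Cx u)) b')) := by
    rw [hH, isBlk_up_iff]
    exact isBlk_bl hM _ hb'.1
  obtain ⟨c, hc, hceq⟩ := exists_block_of_isBlk_sub hM _ hblk2
  have hbel : Bel hM P e (Cn (Subgroup.zpowers u ⊔ Subgroup.zpowers z)) c := by
    refine ⟨hc, ?_⟩
    rw [← hceq]
    have h1 := congrArg (emb (Cx u)) hb'.2
    rw [emb_mul, emb_br, hup, hemb] at h1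
    exact h1
  have hPH : P ≤ Cn (Subgroup.zpowers u ⊔ Subgroup.zpowers z) :=
    le_Cn_of_abelian hab (sup_le ((Subgroup.zpowers_le).2 hu) ((Subgroup.zpowers_le).2 hz))
  have hPK : P.subgroupOf (Cx u) ≤ Cx (⟨z, hzL⟩ : Cx u) := by
    rw [Cx_eq (⟨z, hzL⟩ : Cx u)]; exact le_Cn_of_abelian hab' hR'
  rw [ell_eq hM hbp hPK hb', ell_eq hM he hPH hbel]
  refine (rank_transfer hM (Cx u).subtype (Cx u).subtype_injective (Cx (⟨z, hzL⟩ : Cx u))
    (Cn (Subgroup.zpowers u ⊔ Subgroup.zpowers z)) hH hb'.1 hc ?_).1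
  intro g
  rw [← hceq]
  exact emb_coe (Cx u) _ g

end Cfsg.Agent.Lib.Helper83.Wat
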