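import Cfsg.Agent.Lib.Helper83.Wat.Base

set_option autoImplicit false
set_option linter.unusedSectionVars false
set_option linter.style.haveILetI false

/-! Ladder WAT (S4644), rung ORBSUM. -/

namespace Cfsg.Agent.Lib.Helper83.Wat

open scoped BigOperators
open Cfsg Cfsg.Agent.Lib.Helper80 Cfsg.Agent.Lib.Helper80.GA Cfsg.Agent.Lib.Helper81
open Cfsg.Agent.Lib.Helper83.Star

universe u

variable {p : ℕ} [Fact p.Prime] {M : Ideal AlgInt} (hM : IsPModular p M)
  {G : Type u} [Group G] [Fintype G]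

open Classical in
theorem orbsum {G : Type*} [Group G] [Finite G] (P T : Subgroup G) [Fintype P]
    (hTN : T ≤ Subgroup.normalizer (P : Set G)) (u₀ : G) (hu₀ : u₀ ∈ P) :
    ∑ u : P, (if ∃ y ∈ T, (u : G) = y * u₀ * y⁻¹ then
      (Nat.card (T ⊓ Subgroup.centralizer ({(u : G)} : Set G) : Subgroup G) : ℂ) else 0)
      = (Nat.card T : ℂ) := by
  have hmem : ∀ y : T, (y : G) * u₀ * (y : G)⁻¹ ∈ P := fun y =>
    (Subgroup.mem_normalizer_iff.mp (hTN y.2) u₀).mp hu₀
  let f : T → P := fun y => ⟨(y : G) * u₀ * (y : G)⁻¹, hmem y⟩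
  have h1 : Nat.card T = ∑ u : P, Nat.card {y : T // f y = u} := by
    rw [← Nat.card_sigma]
    exact Nat.card_congr (Equiv.sigmaFiberEquiv f).symm
  rw [h1, Nat.cast_sum]
  apply Finset.sum_congr rfl
  intro u _
  split_ifs with h
  · obtain ⟨y0, hy0, e⟩ := h
    congr 1
    apply Nat.card_congr
    refine
      { toFun := fun c => ⟨⟨(c : G) * y0, T.mul_mem (Subgroup.mem_inf.mp c.2).1 hy0⟩, ?_⟩
        invFun := fun y => ⟨(y.1 : G) * y0⁻¹, ?_⟩
        left_inv := ?_
        right_inv := ?_ }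
    · apply Subtype.ext
      have hc := Subgroup.mem_centralizer_singleton_iff.mp (Subgroup.mem_inf.mp c.2).2
      show (c : G) * y0 * u₀ * ((c : G) * y0)⁻¹ = (u : G)
      calc (c : G) * y0 * u₀ * ((c : G) * y0)⁻¹ = (c : G) * (y0 * u₀ * y0⁻¹) * (c : G)⁻¹ := by group
        _ = (c : G) * (u : G) * (c : G)⁻¹ := by rw [← e]
        _ = (u : G) := by rw [hc]; group
    · refine Subgroup.mem_inf.mpr ⟨T.mul_mem y.1.2 (T.inv_mem hy0), ?_⟩
      rw [Subgroup.mem_centralizer_singleton_iff]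
      have hy : (y.1 : G) * u₀ * (y.1 : G)⁻¹ = (u : G) := congrArg Subtype.val y.2
      calc (y.1 : G) * y0⁻¹ * (u : G) = (y.1 : G) * y0⁻¹ * (y0 * u₀ * y0⁻¹) := by rw [← e]
        _ = ((y.1 : G) * u₀ * (y.1 : G)⁻¹) * ((y.1 : G) * y0⁻¹) := by group
        _ = (u : G) * ((y.1 : G) * y0⁻¹) := by rw [hy]
    · intro c
      apply Subtype.ext
      show (c : G) * y0 * y0⁻¹ = c
      group
    · intro y
      apply Subtype.ext
      apply Subtype.ext
      show (y.1 : G) * y0⁻¹ * y0 = y.1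
      group
  · have : IsEmpty {y : T // f y = u} := by
      constructor
      rintro ⟨y, hy⟩
      exact h ⟨y, y.2, (congrArg Subtype.val hy).symm⟩
    simp

end Cfsg.Agent.Lib.Helper83.Wat
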