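import Cfsg.Agent.Lib.Helper83.Wat.Base
import Cfsg.Agent.Lib.Helper83.Wat.COV
import Cfsg.Agent.Lib.Helper83.Wat.ORBSUM

set_option autoImplicit false
set_option linter.unusedSectionVars false
set_option linter.style.haveILetI false

/-! Ladder WAT (S4644), rung GENW. -/

namespace Cfsg.Agent.Lib.Helper83.Wat

open scoped BigOperators
open Cfsg Cfsg.Agent.Lib.Helper80 Cfsg.Agent.Lib.Helper80.GA Cfsg.Agent.Lib.Helper81
open Cfsg.Agent.Lib.Helper83.Star

universe u

variable {p : ℕ} [Fact p.Prime] {M : Ideal AlgInt} (hM : IsPModular p M)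
  {G : Type u} [Group G] [Fintype G]

open Classical in
theorem genw {B : Set (IrrCharacter G)} (hB : IsPBlock M B) {P : Subgroup G}
    {e : GA (Kr hM) G} (hmax : IsMaxBP p (blkR hM B) P e)
    (hab : ∀ x ∈ P, ∀ y ∈ P, x * y = y * x) {X : Finset G} (hX : PReps p X) [Fintype P]
    [∀ x : G, Fintype (Set (IrrCharacter (Cx x)))] (w : G → ℂ)
    (hw : ∀ y ∈ stabP P e, ∀ u ∈ P, w (y * u * y⁻¹) = w u) :
    (Nat.card (stabP P e) : ℂ) * ∑ x ∈ X, ∑ b : Set (IrrCharacter (Cx x)),
        (if IsInducedBlock M (Cx x) b B then w (Upt hM P e x b) * (blockRank p b : ℂ) else 0)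
      = ∑ u : P, w (u : G) * (ell hM P e (Cx (u : G)) : ℂ) *
          (Nat.card (stabP P e ⊓ Cx (u : G) : Subgroup G) : ℂ) := by
  have he : IsBP p P e := hmax.1.1
  set F : G → ℂ := fun u => w u * (ell hM P e (Cx u) : ℂ) *
    (Nat.card (stabP P e ⊓ Cx u : Subgroup G) : ℂ) with hF
  have h1 : ∀ u : P, F (u : G) = ∑ x ∈ X, ∑ b : Set (IrrCharacter (Cx x)),
      (if IsInducedBlock M (Cx x) b B ∧ Cov hM P e x b (u : G) then F (u : G) else 0) := by
    intro u
    obtain ⟨x, hx, b, hind, hcov⟩ := cov_exists hM hB hmax hX u.2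
    rw [Finset.sum_eq_single x, Finset.sum_eq_single b]
    · rw [if_pos ⟨hind, hcov⟩]
    · intro b' _ hne
      rw [if_neg]
      rintro ⟨hi', hc'⟩
      exact hne (cov_unique_right hM he hi'.1 hind.1 hc' hcov)
    · intro h; exact absurd (Finset.mem_univ _) h
    · intro x' hx' hne
      apply Finset.sum_eq_zero
      intro b' _
      rw [if_neg]
      rintro ⟨hi', hc'⟩
      exact hne (cov_unique_left hM hX hx' hx hc' hcov)
    · intro h; exact absurd hx h
  have h2 : ∀ x ∈ X, ∀ b : Set (IrrCharacter (Cx x)),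
      ∑ u : P, (if IsInducedBlock M (Cx x) b B ∧ Cov hM P e x b (u : G) then F (u : G) else 0)
      = (Nat.card (stabP P e) : ℂ) * (if IsInducedBlock M (Cx x) b B then
          w (Upt hM P e x b) * (blockRank p b : ℂ) else 0) := by
    intro x hx b
    by_cases hind : IsInducedBlock M (Cx x) b B
    · rw [if_pos hind]
      have hc0 : Cov hM P e x b (Upt hM P e x b) :=
        ⟨gam hM P e x b, carries_gam hM (exists_carries hM hmax (hX.pow x hx) hind), rfl⟩
      have hu0 : Upt hM P e x b ∈ P := Upt_mem hM hmax (hX.pow x hx) hind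
      rw [← orbsum P (stabP P e) (stabP_le_Nn P e) _ hu0, Finset.sum_mul]
      apply Finset.sum_congr rfl
      intro u _
      by_cases hc : Cov hM P e x b (u : G)
      · have hy := (cov_orbit hM hmax hab hc0).1 hc
        rw [if_pos ⟨hind, hc⟩, if_pos hy]
        obtain ⟨y, hy, huy⟩ := hy
        have hwu : w (u : G) = w (Upt hM P e x b) := by rw [huy, hw y hy _ hu0]
        simp only [hF]
        rw [cov_ell hM he hab hind.1 hc, hwu]
        ring
      · have hn : ¬ ∃ y ∈ stabP P e, (u : G) = y * Upt hM P e x b * y⁻¹ :=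
          fun h => hc ((cov_orbit hM hmax hab hc0).2 h)
        rw [if_neg (fun h => hc h.2), if_neg hn, zero_mul]
    · rw [if_neg hind, mul_zero]
      apply Finset.sum_eq_zero
      intro u _
      rw [if_neg (fun h => hind h.1)]
  calc (Nat.card (stabP P e) : ℂ) * ∑ x ∈ X, ∑ b : Set (IrrCharacter (Cx x)),
        (if IsInducedBlock M (Cx x) b B then w (Upt hM P e x b) * (blockRank p b : ℂ) else 0)
      = ∑ x ∈ X, ∑ b : Set (IrrCharacter (Cx x)), ∑ u : P,
          (if IsInducedBlock M (Cx x) b B ∧ Cov hM P e x b (u : G) then F (u : G) else 0) := by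
        rw [Finset.mul_sum]
        apply Finset.sum_congr rfl
        intro x hx
        rw [Finset.mul_sum]
        apply Finset.sum_congr rfl
        intro b _
        rw [h2 x hx b]
    _ = ∑ u : P, ∑ x ∈ X, ∑ b : Set (IrrCharacter (Cx x)),
          (if IsInducedBlock M (Cx x) b B ∧ Cov hM P e x b (u : G) then F (u : G) else 0) := by
        rw [Finset.sum_comm]
        apply Finset.sum_congr rfl
        intro x _
        rw [Finset.sum_comm]
    _ = ∑ u : P, F (u : G) := by
        apply Finset.sum_congr rfl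
        intro u _
        rw [← h1 u]

end Cfsg.Agent.Lib.Helper83.Wat
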