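import Cfsg.Agent.Lib.Helper83.Wat.Base
import Cfsg.Agent.Lib.Helper83.Wat.GENW
import Cfsg.Agent.Lib.Helper83.Wat.TR1
import Cfsg.Agent.Lib.Helper83.Wat.ELLLOC
import Cfsg.Agent.Lib.Helper5.AbNil

set_option autoImplicit false
set_option linter.unusedSectionVars false
set_option linter.style.haveILetI false

/-! Ladder WAT (S4644), rung KLOC. -/

namespace Cfsg.Agent.Lib.Helper83.Wat

open scoped BigOperators
open Cfsg Cfsg.Agent.Lib.Helper80 Cfsg.Agent.Lib.Helper80.GA Cfsg.Agent.Lib.Helper81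
open Cfsg.Agent.Lib.Helper83.Star

universe u

variable {p : ℕ} [Fact p.Prime] {M : Ideal AlgInt} (hM : IsPModular p M)
  {G : Type u} [Group G] [Fintype G]

theorem genk {B : Set (IrrCharacter G)} (hB : IsPBlock M B) {P : Subgroup G}
    {e : GA (Kr hM) G} (hmax : IsMaxBP p (blkR hM B) P e)
    (hab : ∀ x ∈ P, ∀ y ∈ P, x * y = y * x) [Fintype P] :
    (Nat.card (stabP P e) : ℂ) * (Nat.card B : ℂ)
      = ∑ u : P, (ell hM P e (Cx (u : G)) : ℂ) *
          (Nat.card (stabP P e ⊓ Cx (u : G) : Subgroup G) : ℂ) := by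
  classical
  obtain ⟨X, hX1, hX2⟩ := Cfsg.Agent.Lib.Helper5.exists_pReps (p := p) (G := G)
  have hX : PReps p X := ⟨hX1, hX2⟩
  have hfin : ∀ x : G, Finite (IrrCharacter (Cx x)) :=
    fun x => Cfsg.Agent.Lib.Helper20.finite_irrCharacter
  haveI : ∀ x : G, Fintype (Set (IrrCharacter (Cx x))) := fun x => Fintype.ofFinite _
  have h1 := genw hM hB hmax hab hX (fun _ => 1) (fun _ _ _ _ => rfl)
  have h2 := card_block_eq hM B hB X hX1 hX2
  rw [h2]
  simp only [one_mul] at h1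
  convert h1 using 1

theorem card_subgroupOf_of_le {S L : Subgroup G} (h : S ≤ L) :
    Nat.card (S.subgroupOf L) = Nat.card S :=
  Nat.card_congr (Subgroup.subgroupOfEquivOfLe h).toEquiv

theorem genk_loc {B : Set (IrrCharacter G)} (hB : IsPBlock M B) {P : Subgroup G}
    {e : GA (Kr hM) G} (hmax : IsMaxBP p (blkR hM B) P e)
    (hab : ∀ x ∈ P, ∀ y ∈ P, x * y = y * x) [Fintype P] {z : G} (hz : z ∈ P)
    (hzT : ∀ g ∈ stabP P e, g * z * g⁻¹ = z) {b : Set (IrrCharacter (Cx z))}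
    (hb : Bel hM P e (Cx z) b) :
    (Nat.card (stabP P e) : ℂ) * (Nat.card b : ℂ)
      = ∑ u : P, (ell hM P e (Cn (Subgroup.zpowers z ⊔ Subgroup.zpowers (u : G))) : ℂ) *
          (Nat.card (stabP P e ⊓ Cx (u : G) : Subgroup G) : ℂ) := by
  classical
  have he : IsBP p P e := hmax.1.1
  have hzP : Subgroup.zpowers z ≤ P := by rw [Subgroup.zpowers_le]; exact hz
  have hPL : P ≤ Cx z := fun y hy => mem_Cx.2 (hab z hz y hy)
  have hCL : Cn P ≤ Cx z := by rw [Cx_eq]; exact Cn_anti hzP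
  have hTL : stabP P e ≤ Cx z := by
    intro g hg
    rw [mem_Cx]
    have := hzT g hg
    calc z * g = (g * z * g⁻¹) * g := by rw [this]
      _ = g * z := by group
  haveI : Fintype (Cx z) := Fintype.ofFinite _
  haveI : Fintype (P.subgroupOf (Cx z)) := Fintype.ofFinite _
  have hmaxL := isMaxBP_loc hM hmax hab hzP (Cx_eq z) hb
  have habL : ∀ x ∈ P.subgroupOf (Cx z), ∀ y ∈ P.subgroupOf (Cx z), x * y = y * x := by
    intro x hx y hy
    apply Subtype.ext
    exact hab x (Subgroup.mem_subgroupOf.1 hx) y (Subgroup.mem_subgroupOf.1 hy)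
  have h := genk hM hb.1 hmaxL habL
  have hst : stabP (P.subgroupOf (Cx z)) (rst (Cx z) e) = (stabP P e).subgroupOf (Cx z) := by
    ext x
    rw [mem_stabP_loc hM he hPL hCL, Subgroup.mem_subgroupOf]
  rw [hst, card_subgroupOf_of_le hTL] at h
  rw [h]
  apply Fintype.sum_equiv (Subgroup.subgroupOfEquivOfLe hPL).toEquiv
  intro u'
  have hu : ((u' : Cx z) : G) ∈ P := Subgroup.mem_subgroupOf.1 u'.2
  have e1 : (((Subgroup.subgroupOfEquivOfLe hPL).toEquiv u' : P) : G) = ((u' : Cx z) : G) := rfl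
  rw [e1]
  have e2 := ell_loc hM he hab hz hu (u' : Cx z).2
  have e3 : ((stabP P e).subgroupOf (Cx z) ⊓ Cx (u' : Cx z) : Subgroup (Cx z))
      = (stabP P e ⊓ Cx ((u' : Cx z) : G)).subgroupOf (Cx z) := by
    ext x
    simp only [Subgroup.mem_inf, Subgroup.mem_subgroupOf, mem_Cx]
    constructor
    · rintro ⟨h1, h2⟩
      exact ⟨h1, congrArg Subtype.val h2⟩
    · rintro ⟨h1, h2⟩
      exact ⟨h1, Subtype.ext h2⟩
  rw [e3, card_subgroupOf_of_le (inf_le_left.trans hTL)]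
  rw [← e2]

end Cfsg.Agent.Lib.Helper83.Wat
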